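import Cfsg.Agent.H13.SylMult.Bound
import Cfsg.Agent.H82.Mult

/-!
Assembling the bounds at the single primes.
-/

set_option autoImplicit false

namespace Cfsg.Agent.H13.SylMult

variable {Γ : Type*} [Group Γ] [Finite Γ] {G : Type*} [Group G] [Finite G]

/-- The exponent of a prime in a number given as a product. -/
theorem factorization_eq {N p a b : ℕ} (hp : p.Prime) (hN : N = p ^ a * b) (hb : ¬ p ∣ b) :
    N.factorization p = a := by
  have hb0 : b ≠ 0 := fun h => hb (h ▸ dvd_zero p)
  rw [hN, Nat.factorization_mul (pow_ne_zero _ hp.ne_zero) hb0, Finsupp.add_apply,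
    hp.factorization_pow, Nat.factorization_eq_zero_of_not_dvd hb]
  simp

/-- A prime dividing the order at most once does not divide the kernel of a stem extension. -/
theorem factorization_ker_eq_zero {σ : Γ →* G} (hσ : Cfsg.IsStemExtension σ) {p : ℕ} (hp : p.Prime)
    (h : (Nat.card G).factorization p ≤ 1) : (Nat.card σ.ker).factorization p = 0 := by
  haveI : Fact p.Prime := ⟨hp⟩
  refine Nat.factorization_eq_zero_of_not_dvd (H64.not_dvd_card_ker_of_isCyclic hσ fun Q => ?_)
  have hQ := Q.card_eq_multiplicity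
  rcases Nat.le_one_iff_eq_zero_or_eq_one.1 h with h | h <;> rw [h] at hQ
  · rw [pow_zero] at hQ
    rw [Subgroup.card_eq_one.1 hQ]
    exact Bot.isCyclic
  · rw [pow_one] at hQ
    exact isCyclic_of_prime_card hQ

/-- Bounds at the listed primes and multiplicity one elsewhere bound the kernel. -/
theorem card_ker_dvd {σ : Γ →* G} (hσ : Cfsg.IsStemExtension σ) {m : ℕ} (hm : m ≠ 0)
    (l : List ℕ) (hl : ∀ p, p ∈ l → (Nat.card σ.ker).factorization p ≤ m.factorization p)
    (hrest : ∀ p, p.Prime → p ∉ l → (Nat.card G).factorization p ≤ 1) : Nat.card σ.ker ∣ m := by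
  rw [← Nat.factorization_le_iff_dvd Nat.card_pos.ne' hm]
  intro p
  by_cases hp : p.Prime
  swap
  · simp [Nat.factorization_eq_zero_of_not_prime _ hp]
  by_cases h : p ∈ l
  · exact hl p h
  · rw [factorization_ker_eq_zero hσ hp (hrest p hp h)]
    exact Nat.zero_le _

/-- A group isomorphic to one with a bound and a stem extension has that cyclic multiplier. -/
theorem hasCyclic_of_bound {X : Type} [Group X] {H : Type} [Group H] [Finite H] (e : X ≃* H) {n : ℕ}
    (hb : ∀ (Δ : Type) [Group Δ] [Finite Δ] (τ : Δ →* H), Cfsg.IsStemExtension τ → Nat.card τ.ker ∣ n)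
    (hn : n ≠ 0)
    (hex : ∃ (Γ : Type) (_ : Group Γ) (_ : Finite Γ) (π : Γ →* H),
      Cfsg.IsStemExtension π ∧ IsCyclic π.ker ∧ Nat.card π.ker = n) :
    Cfsg.HasCyclicSchurMultiplier X n := by
  obtain ⟨Δ, _, _, π, hπ, hc, hcard⟩ := hex
  exact H82.HasSchurMultiplier.of_mulEquiv
    (H82.hasCyclicSchurMultiplier_of_card hπ hc hcard fun Δ _ _ τ hτ =>
      Nat.le_of_dvd (Nat.pos_of_ne_zero hn) (hb Δ τ hτ)) e.symm

end Cfsg.Agent.H13.SylMult
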