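import Cfsg.Agent.H13.SylMult.Perm

/-!
Assembling the check of the positions from parts proved separately, so that each kernel computation
stays small.
-/

set_option autoImplicit false

namespace Cfsg.Agent.H13.SylMult

open Cfsg.Agent.H16 Cfsg.Agent.H36.AutEngine

/-- A check holding at every number of a range holds on the range. -/
theorem allFrom_of_forall {p : ℕ → Bool} : ∀ {n lo : ℕ}, (∀ i, lo ≤ i → i < lo + n → p i = true) →
    allFrom p n lo = true
  | 0, _, _ => rfl
  | n + 1, lo, h => by
    rw [allFrom_succ, Bool.and_eq_true]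
    exact ⟨h lo le_rfl (by omega), allFrom_of_forall fun i h1 h2 => h i (by omega) (by omega)⟩

/-- The whole check from its parts. -/
theorem PermData.ok_of_parts {R : PermData} {D : Pc} {C : Cert} (hrel : R.relsOk D = true)
    (hsep : R.sepOk D = true) (hconj : C.eqns.all R.conjOk = true)
    (hpos : (R.letters.all (fun k => Nat.blt k R.ctx.ns) && R.conjs.all (fun k => Nat.blt k R.ctx.ns) &&
      R.bases.all (fun b => Nat.blt b R.ctx.n)) = true)
    (hslp : ∀ k, k < R.ctx.ns → R.ctx.slpOk k = true) : R.ok D C = true := by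
  simp only [Bool.and_eq_true] at hpos
  simp only [PermData.ok, Bool.and_eq_true]
  exact ⟨⟨⟨⟨⟨⟨hrel, hsep⟩, hconj⟩, hpos.1.1⟩, hpos.1.2⟩, hpos.2⟩,
    allFrom_of_forall fun i _ h => hslp i (by omega)⟩

/-- A test holding on each piece of length `c` holds on the list. -/
theorem all_of_chunks {α : Type*} {l : List α} {f : α → Bool} {c m : ℕ} (hc : 0 < c) (hlen : l.length ≤ c * m)
    (h : ∀ i < m, ((l.drop (c * i)).take c).all f = true) : l.all f = true := by
  rw [List.all_eq_true]
  intro x hx
  obtain ⟨k, hk, rfl⟩ := List.getElem_of_mem hx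
  have hi : k / c < m := Nat.div_lt_of_lt_mul (by omega)
  refine List.all_eq_true.1 (h _ hi) _ (List.mem_iff_getElem.2 ⟨k % c, ?_, ?_⟩)
  · rw [List.length_take, List.length_drop]
    have h1 := Nat.mod_lt k hc
    have h2 := Nat.div_add_mod k c
    omega
  · rw [List.getElem_take, List.getElem_drop]
    exact getElem_congr_idx (Nat.div_add_mod k c)

/-- The check of the rows from its parts. -/
theorem Cert.rowsOk_of_parts {C : Cert} {D : Pc} (h1 : Nat.beq C.eqns.length C.rows.length = true)
    (h2 : ((List.zip C.eqns C.rows).all fun qr => eqnOk D C qr.1 qr.2) = true) : C.rowsOk D = true := by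
  simp only [Cert.rowsOk, Bool.and_eq_true]
  exact ⟨h1, h2⟩

/-- The test of one combination. -/
def Cert.comboTest (C : Cert) (D : Pc) (qa : ℕ × (ℤ × List (ℕ × ℤ))) : Bool :=
  (List.zipWith (fun u x => u - (ind x qa.1 - qa.2.1 * ind x C.top)) (lincomb C qa.2.2) C.live).all
    fun d => decide (d % ((D.p : ℤ) ^ C.e) = 0)

/-- The short parts of the check of the combinations. -/
def Cert.comboHead (C : Cert) (D : Pc) : Bool :=
  decide (C.coords D).Nodup && Nat.beq C.combos.length C.live.length && Nat.blt C.k C.e &&
    (C.live.isEmpty || C.live.contains C.top) &&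
    (C.combos.all fun ac => ac.2.all fun it => Nat.blt it.1 C.rows.length) &&
    (C.topCombo.all fun it => Nat.blt it.1 C.rows.length)

/-- The test of the top combination. -/
def Cert.topTest (C : Cert) (D : Pc) : Bool :=
  (List.zipWith (fun u x => u - (D.p : ℤ) ^ C.k * ind x C.top) (lincomb C C.topCombo) C.live).all
    fun d => decide (d % ((D.p : ℤ) ^ C.e) = 0)

/-- The check of the combinations from its parts. -/
theorem Cert.combosOk_of_parts {C : Cert} {D : Pc} (h1 : C.comboHead D = true)
    (h2 : (List.zip C.live C.combos).all (C.comboTest D) = true) (h3 : C.topTest D = true) :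
    C.combosOk D = true := by
  simp only [Cert.comboHead, Bool.and_eq_true] at h1
  simp only [Cert.combosOk, Bool.and_eq_true]
  exact ⟨⟨h1, h2⟩, h3⟩

end Cfsg.Agent.H13.SylMult
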