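import Cfsg.Agent.H36.AutEngineBase
import Cfsg.Agent.H10.StemCriteria
import Cfsg.Prelude.Def_KGroupFacts

/-!
Certified double covers: a permutation group on `n` points preserving the first `n₀`, whose elements
fixing these are the powers of a central involution lying in the derived group.
-/

set_option autoImplicit false

namespace Cfsg.Agent.H13.SylMult

open Equiv Cfsg.Agent.H16 Cfsg.Agent.H36 Cfsg.Agent.H36.AutEngine
open scoped commutatorElement

/-- A level: base point, generators with inverses, transversal with its tree, words for the next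
generators in these generators and inverses, and the sifts of the products. -/
structure CLevel where
  /-- the base point -/
  b : ℕ
  /-- generators -/
  gens : List ℕ
  /-- their inverses -/
  invs : List ℕ
  /-- transversal, the identity first -/
  trans : List ℕ
  /-- generator and parent of each later transversal element -/
  tree : List (ℕ × ℕ)
  /-- words for the generators of the next level -/
  prov : List (List ℕ)
  /-- digits and central part of each product of a generator and a transversal element -/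
  rows : List (List ℕ × Bool)

/-- An empty level. -/
def CLevel.none : CLevel := ⟨0, [], [], [], [], [], []⟩

/-- The data of a double cover. -/
structure CoverData where
  /-- the program on all points -/
  ctx : Ctx
  /-- the number of points of the base group -/
  n0 : ℕ
  /-- the levels -/
  levels : List CLevel
  /-- the central element -/
  z : ℕ
  /-- commutators with product `z` -/
  wit : List (ℕ × ℕ × ℕ × ℕ)

variable (V : CoverData)

/-- The level `i`. -/
def CoverData.lev (i : ℕ) : CLevel := V.levels.getD i CLevel.none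

/-- A product of entries applied to a point. -/
noncomputable def CoverData.apP (l : List ℕ) (x : ℕ) : ℕ :=
  List.rec (motive := fun _ => ℕ) x (fun a _ ih => forceNat ih fun y => V.ctx.ap (V.ctx.el a) y) l

/-- Two products agree. -/
noncomputable def CoverData.same (u v : List ℕ) : Bool :=
  V.ctx.allPts fun x => Nat.beq (V.apP u x) (V.apP v x)

/-- The digits of a product as entries. -/
def CoverData.digits : ℕ → List ℕ → List ℕ
  | _, [] => []
  | i, d :: ds => (V.lev i).trans.getD d 0 :: CoverData.digits (i + 1) ds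

/-- The check of the generators. -/
noncomputable def CoverData.gensOk : Bool :=
  Nat.beq V.ctx.gens.length 4 && Nat.ble V.n0 V.ctx.n && Nat.ble 4 V.ctx.ns &&
    (List.range 4).all fun c => forceNat (getN V.ctx.gens c) fun P =>
      forceNat (getN V.ctx.gens (if c < 2 then c + 2 else c - 2)) fun Q =>
      allFrom (fun x => Nat.blt (V.ctx.ap P x) V.ctx.n && Nat.beq (V.ctx.ap Q (V.ctx.ap P x)) x &&
        (!Nat.blt x V.n0 || Nat.blt (V.ctx.ap P x) V.n0)) V.ctx.n 0

/-- The check of the central element. -/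
noncomputable def CoverData.centralOk : Bool :=
  Nat.blt V.z V.ctx.ns &&
    allFrom (fun x => Nat.beq (V.ctx.ap (V.ctx.el V.z) x) x) V.n0 0 &&
    !allFrom (fun x => Nat.beq (V.ctx.ap (V.ctx.el V.z) x) x) V.ctx.n 0 &&
    V.same [V.z, V.z] [] &&
    ((List.range 4).all fun c => V.same [V.z, c] [c, V.z]) &&
    V.wit.all (fun q => Nat.blt q.1 V.ctx.ns && Nat.blt q.2.1 V.ctx.ns && Nat.blt q.2.2.1 V.ctx.ns &&
      Nat.blt q.2.2.2 V.ctx.ns && V.same [q.1, q.2.1] [] && V.same [q.2.2.1, q.2.2.2] []) &&
    V.same (V.wit.flatMap fun q => [q.1, q.2.2.1, q.2.1, q.2.2.2]) [V.z]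

/-- The check of a level except its products. -/
noncomputable def CoverData.shapeOk (i : ℕ) : Bool :=
  let L := V.lev i
  let M := V.lev (i + 1)
  Nat.blt L.b V.n0 && Nat.beq L.gens.length L.invs.length &&
    (L.gens ++ L.invs ++ L.trans).all (fun k => Nat.blt k V.ctx.ns) &&
    ((List.range L.gens.length).all fun j => V.same [L.invs.getD j 0, L.gens.getD j 0] []) &&
    Nat.beq (L.tree.length + 1) L.trans.length && V.same [L.trans.getD 0 0] [] &&
    ((List.range L.tree.length).all fun k =>
      forceNat (L.trans.getD (k + 1) 0) fun t =>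
      Nat.ble (L.tree.getD k (0, 0)).2 k && Nat.blt (L.tree.getD k (0, 0)).1 L.gens.length &&
        !Nat.beq (V.ctx.ap (V.ctx.el t) L.b) L.b &&
        V.same [t] [L.gens.getD (L.tree.getD k (0, 0)).1 0, L.trans.getD (L.tree.getD k (0, 0)).2 0]) &&
    Nat.beq L.prov.length M.gens.length &&
    ((List.range M.gens.length).all fun q =>
      ((L.prov.getD q []).all fun x => Nat.blt x (L.gens ++ L.invs).length) &&
        Nat.blt (M.gens.getD q 0) V.ctx.ns &&
        Nat.beq (V.ctx.ap (V.ctx.el (M.gens.getD q 0)) L.b) L.b &&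
        V.same [M.gens.getD q 0] ((L.prov.getD q []).map fun x => (L.gens ++ L.invs).getD x 0)) &&
    Nat.beq L.rows.length (L.gens.length * L.trans.length)

/-- The check of one product. -/
noncomputable def CoverData.rowOk (i j : ℕ) : Bool :=
  let L := V.lev i
  forceNat (j / L.trans.length) fun g => forceNat (j % L.trans.length) fun k =>
  let e := L.rows.getD j ([], false)
  Nat.beq e.1.length (V.levels.length - i) &&
    ((List.range e.1.length).all fun l => Nat.blt (e.1.getD l 0) (V.lev (i + l)).trans.length) &&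
    V.same [L.gens.getD g 0, L.trans.getD k 0]
      (V.digits i e.1 ++ bif e.2 then [V.z] else [])

/-- The check of the products `lo, …, lo + cnt - 1` of a level. -/
noncomputable def CoverData.rowsOk (i lo cnt : ℕ) : Bool := allFrom (V.rowOk i) cnt lo

variable {V}

/-- All checks. -/
structure CoverData.Checked (V : CoverData) : Prop where
  slp : ∀ k, k < V.ctx.ns → V.ctx.slpOk k = true
  gens : V.gensOk = true
  central : V.centralOk = true
  start : (V.lev 0).gens = [0, 1] ∧ (V.lev 0).invs = [2, 3]
  shape : ∀ i, i < V.levels.length → V.shapeOk i = true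
  rows : ∀ i, i < V.levels.length → ∀ j, j < (V.lev i).rows.length → V.rowOk i j = true

theorem gens_spec (h : V.gensOk = true) {c : ℕ} (hc : c < 4) (x : Fin V.ctx.n) :
    V.ctx.ap (getN V.ctx.gens c) x < V.ctx.n ∧
      V.ctx.ap (getN V.ctx.gens (if c < 2 then c + 2 else c - 2)) (V.ctx.ap (getN V.ctx.gens c) x) = x ∧
      ((x : ℕ) < V.n0 → V.ctx.ap (getN V.ctx.gens c) x < V.n0) := by
  simp only [CoverData.gensOk, Bool.and_eq_true, List.all_eq_true, List.mem_range, forceNat_eq] at h
  have h1 := allFrom_spec (h.2 c hc) x (Nat.zero_le _) (by simp)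
  simp only [Bool.and_eq_true, Bool.or_eq_true, Bool.not_eq_true'] at h1
  refine ⟨Nat.le_of_ble_eq_true h1.1.1, Nat.eq_of_beq_eq_true h1.1.2, fun hx => ?_⟩
  rcases h1.2 with h2 | h2
  · have : Nat.blt x V.n0 = true := Nat.ble_eq_true_of_le hx
    rw [this] at h2; exact Bool.noConfusion h2
  · exact Nat.le_of_ble_eq_true h2

/-- The generating permutations. -/
noncomputable def CoverData.perm (h : V.gensOk = true) (c : Fin V.ctx.gens.length) : Perm (Fin V.ctx.n) :=
  have h4 : V.ctx.gens.length = 4 := by
    simp only [CoverData.gensOk, Bool.and_eq_true] at h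
    exact Nat.eq_of_beq_eq_true h.1.1.1
  have hd : (if (c : ℕ) < 2 then (c : ℕ) + 2 else (c : ℕ) - 2) < 4 := by
    have := c.isLt; split_ifs <;> omega
  { toFun := fun x => ⟨_, (gens_spec h (h4 ▸ c.isLt) x).1⟩
    invFun := fun x => ⟨_, (gens_spec h hd x).1⟩
    left_inv := fun x => Fin.ext (gens_spec h (h4 ▸ c.isLt) x).2.1
    right_inv := fun x => Fin.ext (by
      have h2 := (gens_spec h hd x).2.1
      have hcc : (if (if (c : ℕ) < 2 then (c : ℕ) + 2 else (c : ℕ) - 2) < 2 then
          (if (c : ℕ) < 2 then (c : ℕ) + 2 else (c : ℕ) - 2) + 2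
          else (if (c : ℕ) < 2 then (c : ℕ) + 2 else (c : ℕ) - 2) - 2) = (c : ℕ) := by
        have := c.isLt; split_ifs <;> omega
      rw [hcc] at h2
      exact h2) }

/-- The cover. -/
noncomputable def CoverData.group (h : V.gensOk = true) : Subgroup (Perm (Fin V.ctx.n)) :=
  Subgroup.closure (Set.range (V.perm h))

/-- An entry as an element of the cover. -/
noncomputable def CoverData.el (hV : V.Checked) (a : ℕ) : Perm (Fin V.ctx.n) :=
  if h : a < V.ctx.ns then (Ctx.el_mem (V.perm hV.gens) (fun _ _ => rfl) hV.slp a h).choose else 1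

theorem el_spec (hV : V.Checked) {a : ℕ} (h : a < V.ctx.ns) :
    V.el hV a ∈ V.group hV.gens ∧ V.ctx.Rep (V.el hV a) (V.ctx.el a) := by
  rw [CoverData.el, dif_pos h]
  exact (Ctx.el_mem (V.perm hV.gens) (fun _ _ => rfl) hV.slp a h).choose_spec

theorem prod_apply (hV : V.Checked) : ∀ (l : List ℕ), (∀ a ∈ l, a < V.ctx.ns) → ∀ x : Fin V.ctx.n,
    (((l.map (V.el hV)).prod x : Fin V.ctx.n) : ℕ) = V.apP l x
  | [], _, x => rfl
  | a :: l, h, x => by
    rw [List.map_cons, List.prod_cons, Perm.mul_apply, (el_spec hV (h a List.mem_cons_self)).2,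
      prod_apply hV l fun b hb => h b (List.mem_cons_of_mem _ hb)]
    simp only [CoverData.apP, forceNat_eq]

theorem prod_eq_of_same (hV : V.Checked) {u v : List ℕ} (hu : ∀ a ∈ u, a < V.ctx.ns)
    (hv : ∀ a ∈ v, a < V.ctx.ns) (h : V.same u v = true) :
    (u.map (V.el hV)).prod = (v.map (V.el hV)).prod :=
  Equiv.ext fun x => Fin.ext (by rw [prod_apply hV u hu, prod_apply hV v hv]; exact Ctx.pts_spec h x)

theorem four_lt (hV : V.Checked) {c : ℕ} (hc : c < 4) : c < V.ctx.ns := by
  have h := hV.gens
  simp only [CoverData.gensOk, Bool.and_eq_true] at h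
  exact lt_of_lt_of_le hc (Nat.le_of_ble_eq_true h.1.2)

theorem len_gens (hV : V.Checked) : V.ctx.gens.length = 4 := by
  have h := hV.gens
  simp only [CoverData.gensOk, Bool.and_eq_true] at h
  exact Nat.eq_of_beq_eq_true h.1.1.1

theorem el_gen (hV : V.Checked) (c : Fin V.ctx.gens.length) : V.el hV c = V.perm hV.gens c := by
  have hc : (c : ℕ) < V.ctx.ns := four_lt hV (len_gens hV ▸ c.isLt)
  refine ((el_spec hV hc).2).unique ?_
  have h := hV.slp c hc
  simp only [Ctx.slpOk, forceNat_eq] at h
  rw [show Nat.blt c V.ctx.gens.length = true from Nat.ble_eq_true_of_le c.isLt, cond_true] at h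
  exact fun x => (show ((V.perm hV.gens c x : Fin V.ctx.n) : ℕ) = _ from rfl).trans (Ctx.pts_spec h x).symm

/-- The central element. -/
noncomputable def CoverData.zel (hV : V.Checked) : Perm (Fin V.ctx.n) := V.el hV V.z

theorem z_facts (hV : V.Checked) : V.zel hV ∈ V.group hV.gens ∧
    (∀ x : Fin V.ctx.n, (x : ℕ) < V.n0 → V.zel hV x = x) ∧ V.zel hV ≠ 1 ∧ V.zel hV * V.zel hV = 1 ∧
    ∀ g ∈ V.group hV.gens, V.zel hV * g = g * V.zel hV := by
  have h := hV.central
  simp only [CoverData.centralOk, Bool.and_eq_true, List.all_eq_true, List.mem_range,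
    Bool.not_eq_true'] at h
  obtain ⟨⟨⟨⟨⟨⟨hz, hfix⟩, hne⟩, hsq⟩, hcomm⟩, -⟩, -⟩ := h
  replace hz := Nat.le_of_ble_eq_true hz
  obtain ⟨hm, hr⟩ := el_spec hV hz
  refine ⟨hm, fun x hx => Fin.ext ?_, fun h1 => ?_, ?_, fun g hg => ?_⟩
  · exact (hr x).trans (Nat.eq_of_beq_eq_true (allFrom_spec hfix x (Nat.zero_le _) (by omega)))
  · have key : ∀ k lo, lo + k ≤ V.ctx.n →
        allFrom (fun x => Nat.beq (V.ctx.ap (V.ctx.el V.z) x) x) k lo = true := by
      intro k
      induction k with
      | zero => exact fun _ _ => rfl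
      | succ k ih =>
        intro lo hlo
        have h2 := hr ⟨lo, by omega⟩
        rw [show V.el hV V.z = 1 from h1] at h2
        rw [allFrom_succ, ih (lo + 1) (by omega), Bool.and_true]
        simp only [Perm.one_apply] at h2
        simp [← h2]
    rw [key _ 0 (by simp)] at hne
    exact Bool.noConfusion hne
  · have := prod_eq_of_same hV (u := [V.z, V.z]) (v := []) (by simp; omega) (by simp) hsq
    simpa [CoverData.zel] using this
  · suffices V.group hV.gens ≤ Subgroup.centralizer {V.zel hV} from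
      Subgroup.mem_centralizer_iff.1 (this hg) _ rfl
    rw [CoverData.group, Subgroup.closure_le]
    rintro _ ⟨c, rfl⟩
    rw [SetLike.mem_coe, Subgroup.mem_centralizer_iff]
    intro y hy
    obtain rfl : y = V.zel hV := hy
    have hc : (c : ℕ) < 4 := len_gens hV ▸ c.isLt
    have := prod_eq_of_same hV (u := [V.z, (c : ℕ)]) (v := [(c : ℕ), V.z])
      (by simp; exact ⟨hz, four_lt hV hc⟩) (by simp; exact ⟨four_lt hV hc, hz⟩) (hcomm c hc)
    simpa [el_gen hV c, CoverData.zel] using this

/-- The group of a level. -/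
noncomputable def CoverData.lvl (hV : V.Checked) (i : ℕ) : Subgroup (Perm (Fin V.ctx.n)) :=
  Subgroup.closure ({g | ∃ a ∈ (V.lev i).gens, V.el hV a = g} ∪ {V.zel hV})

/-- The unpacked check of a level. -/
structure LevelFacts (hV : V.Checked) (i : ℕ) : Prop where
  base : (V.lev i).b < V.n0
  bnd : ∀ a ∈ (V.lev i).gens ++ (V.lev i).invs ++ (V.lev i).trans, a < V.ctx.ns
  transMem : ∀ k, k < (V.lev i).trans.length → V.el hV ((V.lev i).trans.getD k 0) ∈ V.lvl hV i
  first : V.el hV ((V.lev i).trans.getD 0 0) = 1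
  pos : 0 < (V.lev i).trans.length
  moved : ∀ k, 0 < k → k < (V.lev i).trans.length →
    V.ctx.ap (V.ctx.el ((V.lev i).trans.getD k 0)) (V.lev i).b ≠ (V.lev i).b
  next : V.lvl hV (i + 1) ≤ V.lvl hV i
  nextFix : ∀ a ∈ (V.lev (i + 1)).gens,
    a < V.ctx.ns ∧ V.ctx.ap (V.ctx.el a) (V.lev i).b = (V.lev i).b
  count : (V.lev i).rows.length = (V.lev i).gens.length * (V.lev i).trans.length

theorem level_facts (hV : V.Checked) {i : ℕ} (hi : i < V.levels.length) : LevelFacts hV i := by
  have h := hV.shape i hi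
  simp only [CoverData.shapeOk, Bool.and_eq_true, List.all_eq_true, List.mem_range, forceNat_eq,
    Bool.not_eq_true'] at h
  obtain ⟨⟨⟨⟨⟨⟨⟨⟨⟨hb, hgi⟩, hbnd⟩, hinv⟩, htl⟩, h0⟩, htree⟩, hpl⟩, hprov⟩, hrl⟩ := h
  set L := V.lev i
  set M := V.lev (i + 1)
  replace htl := Nat.eq_of_beq_eq_true htl
  replace hgi := Nat.eq_of_beq_eq_true hgi
  have hbnd' : ∀ a ∈ L.gens ++ L.invs ++ L.trans, a < V.ctx.ns := fun a ha => Nat.le_of_ble_eq_true (hbnd a ha)
  have hg : ∀ j, j < L.gens.length → L.gens.getD j 0 ∈ L.gens := fun j hj => by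
    rw [List.getD_eq_getElem _ _ hj]; exact List.getElem_mem _
  have ht : ∀ k, k < L.trans.length → L.trans.getD k 0 < V.ctx.ns := fun k hk => by
    rw [List.getD_eq_getElem _ _ hk]
    exact hbnd' _ (List.mem_append_right _ (List.getElem_mem _))
  have hgb : ∀ j, j < L.gens.length → L.gens.getD j 0 < V.ctx.ns := fun j hj =>
    hbnd' _ (List.mem_append_left _ (List.mem_append_left _ (hg j hj)))
  have hib : ∀ j, j < L.gens.length → L.invs.getD j 0 < V.ctx.ns := fun j hj => by
    rw [List.getD_eq_getElem _ _ (hgi ▸ hj)]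
    exact hbnd' _ (List.mem_append_left _ (List.mem_append_right _ (List.getElem_mem _)))
  have hgm : ∀ j, j < L.gens.length → V.el hV (L.gens.getD j 0) ∈ V.lvl hV i := fun j hj =>
    Subgroup.subset_closure (Or.inl ⟨_, hg j hj, rfl⟩)
  have hfirst : V.el hV (L.trans.getD 0 0) = 1 := by
    simpa using prod_eq_of_same hV (u := [L.trans.getD 0 0]) (v := [])
      (by simpa using ht 0 (by omega)) (by simp) h0
  have htm : ∀ k, k < L.trans.length → V.el hV (L.trans.getD k 0) ∈ V.lvl hV i := by
    intro k
    induction k using Nat.strong_induction_on with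
    | _ k ih =>
      intro hk
      cases k with
      | zero => rw [hfirst]; exact one_mem _
      | succ k =>
        obtain ⟨⟨⟨hp, hj⟩, -⟩, hs⟩ := htree k (by omega)
        replace hp := Nat.le_of_ble_eq_true hp
        replace hj := Nat.le_of_ble_eq_true hj
        have h2 := prod_eq_of_same hV (u := [L.trans.getD (k + 1) 0])
          (v := [L.gens.getD (L.tree.getD k (0, 0)).1 0, L.trans.getD (L.tree.getD k (0, 0)).2 0])
          (by simpa using ht _ hk) (List.forall_mem_cons.2 ⟨hgb _ hj, List.forall_mem_cons.2 ⟨ht _ (by omega), by simp⟩⟩) hs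
        simp only [List.map_cons, List.map_nil, List.prod_cons, List.prod_nil, mul_one] at h2
        rw [h2]
        exact mul_mem (hgm _ hj) (ih _ (by omega) (by omega))
  refine ⟨Nat.le_of_ble_eq_true hb, hbnd', htm, hfirst, (show 0 < L.trans.length by omega), fun k h0k hk => ?_, ?_, fun a ha => ?_,
    Nat.eq_of_beq_eq_true hrl⟩
  · obtain ⟨k', rfl⟩ : ∃ k', k = k' + 1 := ⟨k - 1, by omega⟩
    replace hk : k' + 1 < L.trans.length := hk
    obtain ⟨⟨-, hm⟩, -⟩ := htree k' (by omega)
    exact fun e => by rw [e, Nat.beq_refl] at hm; exact Bool.noConfusion hm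
  · rw [CoverData.lvl, Subgroup.closure_le]
    rintro g (⟨a, ha, rfl⟩ | rfl)
    · obtain ⟨q, hq, rfl⟩ := List.getElem_of_mem ha
      obtain ⟨⟨⟨hw, hlt⟩, -⟩, hs⟩ := hprov q hq
      rw [List.getD_eq_getElem _ _ hq] at hs hlt
      have hwb : ∀ x ∈ (L.prov.getD q []).map fun x => (L.gens ++ L.invs).getD x 0, x < V.ctx.ns := by
        intro x hx
        obtain ⟨y, hy, rfl⟩ := List.mem_map.1 hx
        rw [List.getD_eq_getElem _ _ (Nat.le_of_ble_eq_true (hw y hy))]
        exact hbnd' _ (List.mem_append_left _ (List.getElem_mem _))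
      have h2 := prod_eq_of_same hV (u := [M.gens[q]]) (by simpa using Nat.le_of_ble_eq_true hlt) hwb hs
      simp only [List.map_cons, List.map_nil, List.prod_cons, List.prod_nil, mul_one] at h2
      rw [SetLike.mem_coe, h2]
      refine list_prod_mem fun g hg' => ?_
      obtain ⟨x, hx, rfl⟩ := List.mem_map.1 hg'
      obtain ⟨y, hy, rfl⟩ := List.mem_map.1 hx
      have hy' := Nat.le_of_ble_eq_true (hw y hy)
      rw [List.getD_eq_getElem _ _ hy', List.getElem_append]
      split_ifs with hyl
      · exact Subgroup.subset_closure (Or.inl ⟨_, List.getElem_mem _, rfl⟩)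
      · have hj : y - L.gens.length < L.gens.length := by
          rw [List.length_append] at hy'; omega
        have h3 := prod_eq_of_same hV (u := [L.invs.getD (y - L.gens.length) 0, L.gens.getD (y - L.gens.length) 0])
          (v := []) (by simp; exact ⟨hib _ hj, hgb _ hj⟩) (by simp) (hinv _ hj)
        simp only [List.map_cons, List.map_nil, List.prod_cons, List.prod_nil, mul_one] at h3
        rw [← List.getD_eq_getElem _ 0 (hgi ▸ hj), eq_inv_of_mul_eq_one_left h3]
        exact inv_mem (hgm _ hj)
    · exact Subgroup.subset_closure (Or.inr rfl)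
  · obtain ⟨q, hq, rfl⟩ := List.getElem_of_mem ha
    obtain ⟨⟨⟨-, hlt⟩, hfix⟩, -⟩ := hprov q hq
    rw [List.getD_eq_getElem _ _ hq] at hlt hfix
    exact ⟨Nat.le_of_ble_eq_true hlt, Nat.eq_of_beq_eq_true hfix⟩

theorem lvl_anti (hV : V.Checked) {i : ℕ} : ∀ {k : ℕ}, i + k ≤ V.levels.length →
    V.lvl hV (i + k) ≤ V.lvl hV i
  | 0, _ => le_rfl
  | k + 1, h => (level_facts hV (i := i + k) (by omega)).next.trans (lvl_anti hV (by omega))

theorem digits_mem (hV : V.Checked) : ∀ (ds : List ℕ) (i : ℕ), i + ds.length ≤ V.levels.length →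
    (∀ l, l < ds.length → ds.getD l 0 < (V.lev (i + l)).trans.length) →
    (∀ a ∈ V.digits i ds, a < V.ctx.ns) ∧ ((V.digits i ds).map (V.el hV)).prod ∈ V.lvl hV i
  | [], _, _, _ => ⟨fun a ha => absurd ha List.not_mem_nil, one_mem _⟩
  | d :: ds, i, hlen, h => by
    rw [List.length_cons] at hlen
    have hd := h 0 (by simp)
    simp only [Nat.add_zero, List.getD_cons_zero] at hd
    obtain ⟨h1, h2⟩ := digits_mem hV ds (i + 1) (by omega) fun l hl => by
      have := h (l + 1) (by simp; omega)
      rwa [List.getD_cons_succ, show i + (l + 1) = i + 1 + l by omega] at this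
    have hf := level_facts hV (i := i) (by omega)
    refine ⟨List.forall_mem_cons.2 ⟨?_, h1⟩, ?_⟩
    · rw [List.getD_eq_getElem _ _ hd]
      exact hf.bnd _ (List.mem_append_right _ (List.getElem_mem _))
    · rw [CoverData.digits, List.map_cons, List.prod_cons]
      exact mul_mem (hf.transMem d hd) (hf.next h2)

theorem fix_lvl (hV : V.Checked) {i : ℕ} (hi : i < V.levels.length) {b : Fin V.ctx.n}
    (hb : (b : ℕ) = (V.lev i).b) {g : Perm (Fin V.ctx.n)} (hg : g ∈ V.lvl hV (i + 1)) : g b = b := by
  have hf := level_facts hV hi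
  suffices V.lvl hV (i + 1) ≤ MulAction.stabilizer (Perm (Fin V.ctx.n)) b from this hg
  rw [CoverData.lvl, Subgroup.closure_le]
  rintro x (⟨a, ha, rfl⟩ | rfl)
  · obtain ⟨h1, h2⟩ := hf.nextFix a ha
    exact Fin.ext (((el_spec hV h1).2 b).trans (hb ▸ h2))
  · exact (z_facts hV).2.1 b (hb ▸ hf.base)

theorem mem_next_of_fix (hV : V.Checked) {i : ℕ} (hi : i < V.levels.length) {b : Fin V.ctx.n}
    (hb : (b : ℕ) = (V.lev i).b) {x : Perm (Fin V.ctx.n)} (hx : x ∈ V.lvl hV i) (hfix : x b = b) :
    x ∈ V.lvl hV (i + 1) := by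
  have hf := level_facts hV hi
  set L := V.lev i
  set T := fun k => V.el hV (L.trans.getD k 0)
  have hdec : ∀ y ∈ V.lvl hV i, ∀ k, k < L.trans.length →
      ∃ k', k' < L.trans.length ∧ ∃ r ∈ V.lvl hV (i + 1), y * T k = T k' * r := by
    intro y hy
    rw [← Subgroup.mem_toSubmonoid, CoverData.lvl, Subgroup.closure_toSubmonoid_of_finite] at hy
    induction hy using Submonoid.closure_induction with
    | mem s hs =>
      intro k hk
      rcases hs with ⟨a, ha, rfl⟩ | rfl
      · obtain ⟨g, hg, rfl⟩ := List.getElem_of_mem ha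
        set j := g * L.trans.length + k with hj
        have hjl : j < L.rows.length := by
          rw [hf.count]
          calc j < (g + 1) * L.trans.length := by rw [Nat.succ_mul]; omega
            _ ≤ _ := Nat.mul_le_mul_right _ hg
        have hjd : j / L.trans.length = g := by
          rw [hj, Nat.add_comm, Nat.add_mul_div_right _ _ hf.pos, Nat.div_eq_of_lt hk, Nat.zero_add]
        have hjm : j % L.trans.length = k := by
          rw [hj, Nat.add_comm, Nat.add_mul_mod_self_right, Nat.mod_eq_of_lt hk]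
        have h2 := hV.rows i hi j hjl
        simp only [CoverData.rowOk, forceNat_eq, Bool.and_eq_true, List.all_eq_true, List.mem_range] at h2
        rw [show j / (V.lev i).trans.length = g from hjd, show j % (V.lev i).trans.length = k from hjm] at h2
        obtain ⟨⟨hlen, hd⟩, hs⟩ := h2
        replace hlen := Nat.eq_of_beq_eq_true hlen
        set e := (V.lev i).rows.getD j ([], false)
        obtain ⟨d, ds, hds⟩ : ∃ d ds, e.1 = d :: ds := by
          cases he : e.1 with
          | nil => rw [he, List.length_nil] at hlen; omega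
          | cons d ds => exact ⟨d, ds, rfl⟩
        have hd' : ∀ l, l < e.1.length → e.1.getD l 0 < (V.lev (i + l)).trans.length :=
          fun l hl => Nat.le_of_ble_eq_true (hd l hl)
        rw [hds] at hd' hlen hs
        have hd0 := hd' 0 (by simp)
        simp only [Nat.add_zero, List.getD_cons_zero] at hd0
        obtain ⟨hb1, hm1⟩ := digits_mem hV ds (i + 1) (by rw [List.length_cons] at hlen; omega)
          fun l hl => by
            have := hd' (l + 1) (by simp; omega)
            rwa [List.getD_cons_succ, show i + (l + 1) = i + 1 + l by omega] at this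
        have hzb : V.z < V.ctx.ns := by
          have h := hV.central
          simp only [CoverData.centralOk, Bool.and_eq_true] at h
          exact Nat.le_of_ble_eq_true h.1.1.1.1.1.1
        set tailz : List ℕ := bif e.2 then [V.z] else []
        have htz : ∀ a ∈ tailz, a < V.ctx.ns ∧ V.el hV a ∈ V.lvl hV (i + 1) := by
          intro a ha
          cases hc : e.2 <;> simp only [tailz, hc, cond_true, cond_false, List.mem_cons, List.not_mem_nil,
            or_false] at ha
          subst ha
          exact ⟨hzb, Subgroup.subset_closure (Or.inr rfl)⟩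
        have ht0 : L.trans.getD d 0 < V.ctx.ns := by
          rw [List.getD_eq_getElem _ _ hd0]
          exact hf.bnd _ (List.mem_append_right _ (List.getElem_mem _))
        rw [List.getD_eq_getElem _ _ hg] at hs
        have h3 := prod_eq_of_same hV (u := [L.gens[g], L.trans.getD k 0])
          (v := V.digits i (d :: ds) ++ tailz)
          (by
            simp only [List.mem_cons, List.not_mem_nil, or_false, forall_eq_or_imp, forall_eq]
            refine ⟨hf.bnd _ (List.mem_append_left _ (List.mem_append_left _ (List.getElem_mem _))), ?_⟩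
            rw [List.getD_eq_getElem _ _ hk]
            exact hf.bnd _ (List.mem_append_right _ (List.getElem_mem _)))
          (fun a ha => by
            rcases List.mem_append.1 ha with h | h
            · rcases List.mem_cons.1 h with rfl | h
              · exact ht0
              · exact hb1 a h
            · exact (htz a h).1) hs
        simp only [CoverData.digits, List.cons_append, List.map_cons, List.map_nil, List.map_append,
          List.prod_cons, List.prod_nil, List.prod_append, mul_one] at h3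
        refine ⟨d, hd0, _, mul_mem hm1 (list_prod_mem fun g hg => ?_), h3⟩
        obtain ⟨a, ha, rfl⟩ := List.mem_map.1 hg
        exact (htz a ha).2
      · obtain ⟨hm, -, -, -, hc⟩ := z_facts hV
        refine ⟨k, hk, V.zel hV, Subgroup.subset_closure (Or.inr rfl), hc _ ?_⟩
        have hb' : L.trans.getD k 0 < V.ctx.ns := by
          rw [List.getD_eq_getElem _ _ hk]
          exact hf.bnd _ (List.mem_append_right _ (List.getElem_mem _))
        exact (el_spec hV hb').1
    | one => exact fun k hk => ⟨k, hk, 1, one_mem _, by simp⟩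
    | mul y z _ _ ihy ihz =>
      intro k hk
      obtain ⟨k₁, hk₁, r₁, hr₁, e₁⟩ := ihz k hk
      obtain ⟨k₂, hk₂, r₂, hr₂, e₂⟩ := ihy k₁ hk₁
      exact ⟨k₂, hk₂, r₂ * r₁, mul_mem hr₂ hr₁,
        by rw [mul_assoc, e₁, ← mul_assoc, e₂, mul_assoc]⟩
  obtain ⟨k, hk, r, hr, he⟩ := hdec x hx 0 hf.pos
  rw [show T 0 = 1 from hf.first, mul_one] at he
  rcases Nat.eq_zero_or_pos k with rfl | hk0
  · rw [he, show T 0 = 1 from hf.first, one_mul]; exact hr
  · exfalso
    refine hf.moved k hk0 hk ?_
    have hb' : L.trans.getD k 0 < V.ctx.ns := by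
      rw [List.getD_eq_getElem _ _ hk]
      exact hf.bnd _ (List.mem_append_right _ (List.getElem_mem _))
    rw [he, Perm.mul_apply, fix_lvl hV hi hb hr] at hfix
    rw [← hb, ← (el_spec hV hb').2 b]
    exact congrArg Fin.val hfix

theorem group_le_lvl (hV : V.Checked) : V.group hV.gens ≤ V.lvl hV 0 := by
  rw [CoverData.group, Subgroup.closure_le]
  rintro _ ⟨c, rfl⟩
  have hc : (c : ℕ) < 4 := len_gens hV ▸ c.isLt
  rw [SetLike.mem_coe, ← el_gen hV c]
  by_cases h2 : (c : ℕ) < 2
  · refine Subgroup.subset_closure (Or.inl ⟨c, ?_, rfl⟩)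
    rw [hV.start.1]; simp; omega
  · have hlev : 0 < V.levels.length := by
      by_contra h0
      have h := hV.start.1
      rw [CoverData.lev, List.getD_eq_default _ _ (by omega)] at h
      simp [CLevel.none] at h
    have hsh := hV.shape 0 hlev
    simp only [CoverData.shapeOk, Bool.and_eq_true, List.all_eq_true, List.mem_range] at hsh
    have h3 := hsh.1.1.1.1.1.1.2 ((c : ℕ) - 2) (by rw [hV.start.1]; simp; omega)
    rw [hV.start.1, hV.start.2] at h3
    have e1 : ([2, 3] : List ℕ).getD ((c : ℕ) - 2) 0 = c := by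
      obtain h | h : (c : ℕ) = 2 ∨ (c : ℕ) = 3 := by omega
      all_goals simp [h]
    have e2 : ([0, 1] : List ℕ).getD ((c : ℕ) - 2) 0 = (c : ℕ) - 2 := by
      obtain h | h : (c : ℕ) = 2 ∨ (c : ℕ) = 3 := by omega
      all_goals simp [h]
    rw [e1, e2] at h3
    have h4 := prod_eq_of_same hV (by simp; exact ⟨four_lt hV hc, four_lt hV (by omega)⟩) (by simp) h3
    simp only [List.map_cons, List.map_nil, List.prod_cons, List.prod_nil, mul_one] at h4
    rw [eq_inv_of_mul_eq_one_left h4]
    refine inv_mem (Subgroup.subset_closure (Or.inl ⟨(c : ℕ) - 2, ?_, rfl⟩))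
    rw [hV.start.1]; simp; omega

/-- The elements fixing the first points. -/
theorem eq_of_fix (hV : V.Checked) (hlast : (V.lev V.levels.length).gens = [])
    {x : Perm (Fin V.ctx.n)} (hx : x ∈ V.group hV.gens)
    (hfix : ∀ p : Fin V.ctx.n, (p : ℕ) < V.n0 → x p = p) : x = 1 ∨ x = V.zel hV := by
  have hn : V.n0 ≤ V.ctx.n := by
    have h := hV.gens
    simp only [CoverData.gensOk, Bool.and_eq_true] at h
    exact Nat.le_of_ble_eq_true h.1.1.2
  have hmem : ∀ i, i ≤ V.levels.length → x ∈ V.lvl hV i := by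
    intro i
    induction i with
    | zero => exact fun _ => group_le_lvl hV hx
    | succ i ih =>
      intro hi
      have hb := (level_facts hV (i := i) hi).base
      exact mem_next_of_fix hV hi (b := ⟨_, lt_of_lt_of_le hb hn⟩) rfl (ih (by omega)) (hfix _ hb)
  have h := hmem _ le_rfl
  rw [CoverData.lvl, hlast] at h
  have h' : x ∈ Subgroup.zpowers (V.zel hV) := by
    refine (Subgroup.closure_le _).2 ?_ h
    rintro g (⟨a, ha, -⟩ | rfl)
    · simp at ha
    · exact Subgroup.mem_zpowers _
  obtain ⟨j, rfl⟩ := h'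
  have hsq : V.zel hV ^ (2 : ℤ) = 1 := by rw [zpow_two]; exact (z_facts hV).2.2.2.1
  rcases Int.even_or_odd j with ⟨k, rfl⟩ | ⟨k, rfl⟩
  · left; show V.zel hV ^ (k + k) = 1; rw [← two_mul, zpow_mul, hsq, one_zpow]
  · right; show V.zel hV ^ (2 * k + 1) = _; rw [zpow_add, zpow_mul, hsq, one_zpow, one_mul, zpow_one]

/-- The stem extension. -/
theorem exists_stem (hV : V.Checked) (hlast : (V.lev V.levels.length).gens = [])
    (σ : Fin 2 → Perm (Fin V.n0))
    (hσ : ∀ c : Fin 2, ∀ x : Fin V.n0, ((σ c x : Fin V.n0) : ℕ) = V.ctx.ap (getN V.ctx.gens c) x) :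
    ∃ (Γ : Type) (_ : Group Γ) (_ : Finite Γ) (π : Γ →* Subgroup.closure (Set.range σ)),
      Cfsg.IsStemExtension π ∧ IsCyclic π.ker ∧ Nat.card π.ker = 2 := by
  classical
  have hn : V.n0 ≤ V.ctx.n := by
    have h := hV.gens
    simp only [CoverData.gensOk, Bool.and_eq_true] at h
    exact Nat.le_of_ble_eq_true h.1.1.2
  have hlen := len_gens hV
  have hmaps : ∀ g ∈ V.group hV.gens, ∀ p : Fin V.ctx.n, (p : ℕ) < V.n0 → ((g p : Fin V.ctx.n) : ℕ) < V.n0 := by
    intro g hg
    rw [← Subgroup.mem_toSubmonoid, CoverData.group, Subgroup.closure_toSubmonoid_of_finite] at hg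
    induction hg using Submonoid.closure_induction with
    | mem s hs =>
      obtain ⟨c, rfl⟩ := hs
      exact fun p hp => (gens_spec hV.gens (hlen ▸ c.isLt) p).2.2 hp
    | one => exact fun p hp => hp
    | mul y z _ _ ihy ihz => exact fun p hp => ihy _ (ihz p hp)
  let res : V.group hV.gens →* Perm (Fin V.n0) :=
    { toFun := fun g =>
        { toFun := fun p => ⟨_, hmaps g g.2 (Fin.castLE hn p) p.2⟩
          invFun := fun p => ⟨_, hmaps _ (inv_mem g.2) (Fin.castLE hn p) p.2⟩
          left_inv := fun p => by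
            apply Fin.ext
            show (((g : Perm (Fin V.ctx.n))⁻¹ (Fin.castLE hn ⟨_, _⟩) : Fin V.ctx.n) : ℕ) = p
            rw [show Fin.castLE hn ⟨_, hmaps g g.2 (Fin.castLE hn p) p.2⟩ =
              (g : Perm (Fin V.ctx.n)) (Fin.castLE hn p) from Fin.ext rfl]
            simp
          right_inv := fun p => by
            apply Fin.ext
            show (((g : Perm (Fin V.ctx.n)) (Fin.castLE hn ⟨_, _⟩) : Fin V.ctx.n) : ℕ) = p
            rw [show Fin.castLE hn ⟨_, hmaps _ (inv_mem g.2) (Fin.castLE hn p) p.2⟩ =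
              (g : Perm (Fin V.ctx.n))⁻¹ (Fin.castLE hn p) from Fin.ext rfl]
            simp }
      map_one' := Equiv.ext fun p => rfl
      map_mul' := fun g h => Equiv.ext fun p => rfl }
  have hgen : ∀ c : Fin V.ctx.gens.length, V.perm hV.gens c ∈ V.group hV.gens :=
    fun c => Subgroup.subset_closure ⟨c, rfl⟩
  have hres : ∀ c : Fin 2, res ⟨_, hgen ⟨c, by omega⟩⟩ = σ c := fun c =>
    Equiv.ext fun p => Fin.ext ((hσ c p).symm)
  have hrange : res.range = Subgroup.closure (Set.range σ) := by
    refine le_antisymm ?_ ((Subgroup.closure_le _).2 ?_)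
    · rintro _ ⟨g, rfl⟩
      obtain ⟨g, hg⟩ := g
      suffices ∀ hg', res ⟨g, hg'⟩ ∈ Subgroup.closure (Set.range σ) from this hg
      induction hg using Subgroup.closure_induction with
      | mem s hs =>
        intro hg'
        obtain ⟨c, rfl⟩ := hs
        by_cases h2 : (c : ℕ) < 2
        · exact Subgroup.subset_closure ⟨⟨c, h2⟩, (hres ⟨c, h2⟩).symm⟩
        · have hc := c.isLt
          obtain ⟨d, hd⟩ : ∃ d : Fin 2, (d : ℕ) = (c : ℕ) - 2 := ⟨⟨(c : ℕ) - 2, by omega⟩, rfl⟩
          have hinv : V.perm hV.gens c = (V.perm hV.gens ⟨d, by omega⟩)⁻¹ := by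
            refine Equiv.ext fun p => ?_
            rw [eq_comm, Perm.inv_eq_iff_eq]
            refine Fin.ext ?_
            have h3 := (gens_spec hV.gens (c := c) (hlen ▸ hc) p).2.1
            rw [if_neg h2, ← hd] at h3
            exact h3.symm
          rw [show (⟨_, hg'⟩ : V.group hV.gens) = (⟨_, hgen ⟨d, by omega⟩⟩ : V.group hV.gens)⁻¹ from
            Subtype.ext hinv, map_inv, hres d]
          exact inv_mem (Subgroup.subset_closure ⟨d, rfl⟩)
      | one => exact fun _ => by rw [show (⟨1, _⟩ : V.group hV.gens) = 1 from rfl, map_one]; exact one_mem _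
      | mul a b ha hb iha ihb =>
        exact fun hg' => by
          rw [show (⟨a * b, hg'⟩ : V.group hV.gens) = ⟨a, ha⟩ * ⟨b, hb⟩ from rfl, map_mul]
          exact mul_mem (iha ha) (ihb hb)
      | inv a ha iha =>
        exact fun hg' => by
          rw [show (⟨a⁻¹, hg'⟩ : V.group hV.gens) = ⟨a, ha⟩⁻¹ from rfl, map_inv]
          exact inv_mem (iha ha)
    · rintro _ ⟨c, rfl⟩
      exact ⟨_, hres c⟩
  let π : V.group hV.gens →* Subgroup.closure (Set.range σ) :=
    (MulEquiv.subgroupCongr hrange).toMonoidHom.comp res.rangeRestrict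
  obtain ⟨hzm, hzfix, hzne, hzsq, hzc⟩ := z_facts hV
  let Z : V.group hV.gens := ⟨V.zel hV, hzm⟩
  have hker : ∀ x, x ∈ π.ker ↔ x = 1 ∨ x = Z := by
    intro x
    rw [MonoidHom.mem_ker]
    constructor
    · intro hx
      have h1 : res x = 1 := congrArg Subtype.val hx
      rcases eq_of_fix hV hlast x.2 (fun p hp => by
          apply Fin.ext
          have h2 : res x ⟨p, hp⟩ = ⟨p, hp⟩ := by rw [h1]; rfl
          have h3 := congrArg Fin.val h2
          exact h3) with h | h
      · exact Or.inl (Subtype.ext h)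
      · exact Or.inr (Subtype.ext h)
    · rintro (rfl | rfl)
      · exact map_one π
      · refine Subtype.ext (Equiv.ext fun p => Fin.ext ?_)
        show ((V.zel hV (Fin.castLE hn p) : Fin V.ctx.n) : ℕ) = p
        rw [hzfix _ p.2]; rfl
  have hcomm : Z ∈ commutator (V.group hV.gens) := by
    have h := hV.central
    simp only [CoverData.centralOk, Bool.and_eq_true, List.all_eq_true] at h
    obtain ⟨⟨⟨⟨⟨⟨hz, -⟩, -⟩, -⟩, -⟩, hwit⟩, hprod⟩ := h
    have hbnd : ∀ q ∈ V.wit, ∀ a ∈ [q.1, q.2.2.1, q.2.1, q.2.2.2], a < V.ctx.ns := by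
      intro q hq a ha
      obtain ⟨⟨⟨⟨⟨h1, h2⟩, h3⟩, h4⟩, -⟩, -⟩ := hwit q hq
      simp only [List.mem_cons, List.not_mem_nil, or_false] at ha
      rcases ha with rfl | rfl | rfl | rfl
      exacts [Nat.le_of_ble_eq_true h1, Nat.le_of_ble_eq_true h3, Nat.le_of_ble_eq_true h2,
        Nat.le_of_ble_eq_true h4]
    have h2 := prod_eq_of_same hV (fun a ha => by
      obtain ⟨q, hq, ha⟩ := List.mem_flatMap.1 ha; exact hbnd q hq a ha)
      (by simpa using Nat.le_of_ble_eq_true hz) hprod
    have hz' : V.zel hV ∈ ⁅V.group hV.gens, V.group hV.gens⁆ := by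
      rw [CoverData.zel, show V.el hV V.z = ([V.z].map (V.el hV)).prod by simp, ← h2, List.flatMap_def,
        List.map_flatten, List.prod_flatten]
      refine list_prod_mem fun g hg => ?_
      simp only [List.map_map, List.mem_map] at hg
      obtain ⟨q, hq, rfl⟩ := hg
      obtain ⟨⟨⟨⟨⟨-, -⟩, -⟩, -⟩, e1⟩, e2⟩ := hwit q hq
      have b := hbnd q hq
      have i1 := prod_eq_of_same hV (by simp; exact ⟨b q.1 (by simp), b q.2.1 (by simp)⟩) (by simp) e1
      have i2 := prod_eq_of_same hV (by simp; exact ⟨b q.2.2.1 (by simp), b q.2.2.2 (by simp)⟩) (by simp) e2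
      simp only [List.map_cons, List.map_nil, List.prod_cons, List.prod_nil, mul_one] at i1 i2
      simp only [Function.comp_apply, List.map_cons, List.map_nil, List.prod_cons, List.prod_nil, mul_one]
      rw [eq_inv_of_mul_eq_one_right i1, eq_inv_of_mul_eq_one_right i2, ← mul_assoc, ← mul_assoc,
        ← commutatorElement_def]
      exact Subgroup.commutator_mem_commutator (el_spec hV (b q.1 (by simp))).1
        (el_spec hV (b q.2.2.1 (by simp))).1
    rw [← Subgroup.map_subtype_commutator] at hz'
    obtain ⟨y, hy, he⟩ := hz'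
    rwa [show y = Z from Subtype.ext he] at hy
  have hord : orderOf Z = 2 := orderOf_eq_prime (by rw [pow_two]; exact Subtype.ext hzsq)
    fun h => hzne (congrArg Subtype.val h)
  have hkz : π.ker = Subgroup.zpowers Z := by
    refine le_antisymm (fun x hx => ?_) ?_
    · rcases (hker x).1 hx with rfl | rfl
      exacts [one_mem _, Subgroup.mem_zpowers _]
    · rw [Subgroup.zpowers_le]; exact (hker Z).2 (Or.inr rfl)
  refine ⟨V.group hV.gens, inferInstance, inferInstance, π, ⟨?_, ?_, ?_⟩, ?_, ?_⟩
  · exact (MulEquiv.subgroupCongr hrange).surjective.comp res.rangeRestrict_surjective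
  · rw [hkz, Subgroup.zpowers_le, Subgroup.mem_center_iff]
    exact fun g => Subtype.ext (hzc g g.2).symm
  · rw [hkz, Subgroup.zpowers_le]; exact hcomm
  · rw [hkz]; infer_instance
  · rw [hkz, Nat.card_zpowers, hord]

end Cfsg.Agent.H13.SylMult
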